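import Cfsg.Agent.Lib.Helper99.X3.Defs
import Cfsg.Agent.Lib.Helper22.X3.A1a
import Cfsg.Agent.Lib.Helper22.X3.A1b
import Cfsg.Agent.Lib.Helper89.X3.A2
import Cfsg.Agent.Lib.Helper89.X3.A3

set_option autoImplicit false
open scoped MatrixGroups

namespace Cfsg.Agent.Lib.Helper99.X3

variable {F : Type*} [Field F]

local notation "M3" => Matrix (Fin 3) (Fin 3) F

theorem A4_root (α ζ : F) (hα : α ^ 3 = 1) (hζ3 : ζ ^ 3 = 1) (hζ : ζ ≠ 1) :
    ∃ m : ℕ, ζ ^ m * α = 1 := by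
  have h1 : 1 + ζ + ζ ^ 2 = 0 := by
    have : (ζ - 1) * (1 + ζ + ζ ^ 2) = 0 := by linear_combination hζ3
    rcases mul_eq_zero.1 this with h | h
    · exact absurd (sub_eq_zero.1 h) hζ
    · exact h
  have h2 : (α - 1) * ((α - ζ) * (α - ζ ^ 2)) = 0 := by
    linear_combination hα - hζ3 + (-α ^ 2 + α * ζ) * h1
  rcases mul_eq_zero.1 h2 with h | h
  · exact ⟨0, by rw [pow_zero, one_mul]; exact sub_eq_zero.1 h⟩
  · rcases mul_eq_zero.1 h with h | h
    · exact ⟨2, by rw [sub_eq_zero.1 h, ← pow_succ]; exact hζ3⟩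
    · exact ⟨1, by rw [sub_eq_zero.1 h, pow_one, ← pow_succ']; exact hζ3⟩

theorem A4 (R : Subgroup (GL (Fin 3) F)) (hR : Nat.card R = 27) (hRe : Monoid.exponent R = 3)
    (hRna : ¬ IsMulCommutative R) (ω : F) (hω : ω ≠ 1) (hω3 : ω ^ 3 = 1) :
    ∃ (ζ : F) (P a b : GL (Fin 3) F), Std R ζ P a b := by
  obtain ⟨a, b, z, ha, hb, hz, hz1, hab, hza, hzb⟩ := A1a R hR hRna
  have hcube : ∀ g ∈ R, ((g : GL (Fin 3) F) : M3) ^ 3 = 1 := by
    intro g hg
    have h1 := Monoid.pow_exponent_eq_one (⟨g, hg⟩ : R)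
    rw [hRe] at h1
    have h2 : g ^ 3 = 1 := by simpa using congrArg Subtype.val h1
    rw [← Units.val_pow_eq_pow_val, h2, Units.val_one]
  have hz1' : (z : M3) ≠ 1 := fun h => hz1 (Units.ext h)
  have hza' : (z : M3) * (a : M3) = (a : M3) * (z : M3) := by
    rw [← Units.val_mul, ← Units.val_mul, hza]
  have hzb' : (z : M3) * (b : M3) = (b : M3) * (z : M3) := by
    rw [← Units.val_mul, ← Units.val_mul, hzb]
  have hab' : (a : M3) * (b : M3) = (z : M3) * ((b : M3) * (a : M3)) := by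
    rw [← Units.val_mul, ← Units.val_mul, ← Units.val_mul, hab]
  obtain ⟨v, α, ζ, hv, hα3, hζ3, hζ, hav, hzv⟩ :=
    A2 ω hω hω3 (a : M3) (z : M3) (hcube a ha) (hcube z hz) hz1' hza'
  have hα0 : α ≠ 0 := by
    rintro rfl
    simp at hα3
  obtain ⟨P, hPa, hPb, hPz⟩ := A3 (a : M3) (b : M3) (z : M3) (hcube b hb) hab' hzb' v α ζ hv hα0
    hζ3 hζ hav hzv
  obtain ⟨m, hm⟩ := A4_root α ζ hα3 hζ3 hζ
  have ha'R : z ^ m * a ∈ R := R.mul_mem (R.pow_mem hz m) ha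
  have hzmb : z ^ m * b = b * z ^ m := ((show Commute z b from hzb).pow_left m)
  have hne : z ^ m * a * b ≠ b * (z ^ m * a) := by
    intro h
    apply hz1
    have h1 : z ^ m * a * b = z * (b * (z ^ m * a)) := by
      calc z ^ m * a * b = z ^ m * (a * b) := by rw [mul_assoc]
        _ = z ^ m * (z * (b * a)) := by rw [hab]
        _ = z * (z ^ m * b * a) := by
            rw [← mul_assoc, ← mul_assoc, ← pow_succ, pow_succ', mul_assoc, mul_assoc, mul_assoc]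
        _ = z * (b * (z ^ m * a)) := by rw [hzmb, mul_assoc]
    rw [h] at h1
    exact (mul_eq_right.1 h1.symm)
  refine ⟨ζ, P, z ^ m * a, b, hζ, hζ3, A1b R hR _ b ha'R hb hne, ?_, hPb⟩
  rw [Units.val_mul, Units.val_pow_eq_pow_val, hPz, hPa, smul_pow, one_pow, smul_mul_assoc, one_mul,
    smul_smul, hm, one_smul]

end Cfsg.Agent.Lib.Helper99.X3
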