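import Cfsg.Agent.Lib.Helper99.X3.Defs

set_option autoImplicit false
open scoped MatrixGroups

namespace Cfsg.Agent.Lib.Helper99.X3

variable {F : Type*} [Field F]

local notation "M3" => Matrix (Fin 3) (Fin 3) F

theorem C2_transport (P y : GL (Fin 3) F) (X : M3)
    (h : ((P : M3) * X * ((P⁻¹ : GL (Fin 3) F) : M3)) * (y : M3)
      = (y : M3) * ((P : M3) * X * ((P⁻¹ : GL (Fin 3) F) : M3))) :
    X * (((P⁻¹ : GL (Fin 3) F) : M3) * (y : M3) * (P : M3))
      = (((P⁻¹ : GL (Fin 3) F) : M3) * (y : M3) * (P : M3)) * X := by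
  have h1 : ((P⁻¹ : GL (Fin 3) F) : M3) * (P : M3) = 1 := P.inv_mul
  have h2 := congrArg (fun Z : M3 => ((P⁻¹ : GL (Fin 3) F) : M3) * Z * (P : M3)) h
  calc X * (((P⁻¹ : GL (Fin 3) F) : M3) * (y : M3) * (P : M3))
      = (((P⁻¹ : GL (Fin 3) F) : M3) * (P : M3)) * X * ((P⁻¹ : GL (Fin 3) F) : M3) * (y : M3) * (P : M3) := by
        rw [h1, one_mul]; simp only [mul_assoc]
    _ = ((P⁻¹ : GL (Fin 3) F) : M3) * (((P : M3) * X * ((P⁻¹ : GL (Fin 3) F) : M3)) * (y : M3)) * (P : M3) := by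
        simp only [mul_assoc]
    _ = ((P⁻¹ : GL (Fin 3) F) : M3) * ((y : M3) * ((P : M3) * X * ((P⁻¹ : GL (Fin 3) F) : M3))) * (P : M3) := h2
    _ = ((P⁻¹ : GL (Fin 3) F) : M3) * (y : M3) * (P : M3) * X * (((P⁻¹ : GL (Fin 3) F) : M3) * (P : M3)) := by
        simp only [mul_assoc]
    _ = _ := by rw [h1, mul_one]

theorem C2 {R : Subgroup (GL (Fin 3) F)} {ζ : F} {P a b : GL (Fin 3) F} (h : Std R ζ P a b)
    (y : GL (Fin 3) F) (hya : a * y = y * a) (hyb : b * y = y * b) : ∃ c : F, (y : M3) = c • (1 : M3) := by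
  have hζ := h.ne
  have hζ3 := h.cube
  have hζ0 : ζ ≠ 0 := by
    rintro rfl
    simp at hζ3
  have hζ2 : ζ ^ 2 ≠ 1 := by
    intro h2
    apply hζ
    rw [pow_succ, h2, one_mul] at hζ3
    exact hζ3
  obtain ⟨Y, hY⟩ : ∃ Y : M3, Y = ((P⁻¹ : GL (Fin 3) F) : M3) * (y : M3) * (P : M3) := ⟨_, rfl⟩
  have hA : A0 ζ * Y = Y * A0 ζ := by
    rw [hY]
    apply C2_transport
    rw [← h.ha, ← Units.val_mul, ← Units.val_mul, hya]
  have hB : B0 * Y = Y * B0 := by
    rw [hY]
    apply C2_transport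
    rw [← h.hb, ← Units.val_mul, ← Units.val_mul, hyb]
  have eA : ∀ i j, ![1, ζ, ζ ^ 2] i * Y i j = Y i j * ![1, ζ, ζ ^ 2] j := by
    intro i j
    have := congrFun (congrFun hA i) j
    rwa [A0, Matrix.diagonal_mul, Matrix.mul_diagonal] at this
  have e01 : Y 0 1 = 0 := by
    have := eA 0 1
    simp at this
    have h1 : Y 0 1 * (1 - ζ) = 0 := by linear_combination this
    rcases mul_eq_zero.1 h1 with h2 | h2
    · exact h2
    · exact absurd (sub_eq_zero.1 h2).symm hζ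
  have e02 : Y 0 2 = 0 := by
    have := eA 0 2
    simp at this
    have h1 : Y 0 2 * (1 - ζ ^ 2) = 0 := by linear_combination this
    rcases mul_eq_zero.1 h1 with h2 | h2
    · exact h2
    · exact absurd (sub_eq_zero.1 h2).symm hζ2
  have e10 : Y 1 0 = 0 := by
    have := eA 1 0
    simp at this
    have h1 : Y 1 0 * (1 - ζ) = 0 := by linear_combination -this
    rcases mul_eq_zero.1 h1 with h2 | h2
    · exact h2
    · exact absurd (sub_eq_zero.1 h2).symm hζ
  have e20 : Y 2 0 = 0 := by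
    have := eA 2 0
    simp at this
    have h1 : Y 2 0 * (1 - ζ ^ 2) = 0 := by linear_combination -this
    rcases mul_eq_zero.1 h1 with h2 | h2
    · exact h2
    · exact absurd (sub_eq_zero.1 h2).symm hζ2
  have e12 : Y 1 2 = 0 := by
    have := eA 1 2
    simp at this
    have h1 : Y 1 2 * (ζ * (1 - ζ)) = 0 := by linear_combination this
    rcases mul_eq_zero.1 h1 with h2 | h2
    · exact h2
    · rcases mul_eq_zero.1 h2 with h3 | h3
      · exact absurd h3 hζ0
      · exact absurd (sub_eq_zero.1 h3).symm hζ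
  have e21 : Y 2 1 = 0 := by
    have := eA 2 1
    simp at this
    have h1 : Y 2 1 * (ζ * (1 - ζ)) = 0 := by linear_combination -this
    rcases mul_eq_zero.1 h1 with h2 | h2
    · exact h2
    · rcases mul_eq_zero.1 h2 with h3 | h3
      · exact absurd h3 hζ0
      · exact absurd (sub_eq_zero.1 h3).symm hζ
  have e11 : Y 1 1 = Y 0 0 := by
    have := congrFun (congrFun hB 1) 0
    simp [B0, Matrix.mul_apply, Fin.sum_univ_three] at this
    exact this.symm
  have e22 : Y 2 2 = Y 0 0 := by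
    have := congrFun (congrFun hB 2) 1
    simp [B0, Matrix.mul_apply, Fin.sum_univ_three] at this
    rw [← this, e11]
  have hYc : Y = Y 0 0 • (1 : M3) := by
    ext i j
    fin_cases i <;> fin_cases j <;> simp [e01, e02, e10, e12, e20, e21, e11, e22]
  refine ⟨Y 0 0, ?_⟩
  have h1 : (P : M3) * ((P⁻¹ : GL (Fin 3) F) : M3) = 1 := P.mul_inv
  have h2 : (y : M3) = (P : M3) * Y * ((P⁻¹ : GL (Fin 3) F) : M3) := by
    rw [hY]
    calc (y : M3) = ((P : M3) * ((P⁻¹ : GL (Fin 3) F) : M3)) * (y : M3)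
          * ((P : M3) * ((P⁻¹ : GL (Fin 3) F) : M3)) := by rw [h1, one_mul, mul_one]
      _ = _ := by simp only [mul_assoc]
  rw [h2, hYc]
  simp

end Cfsg.Agent.Lib.Helper99.X3
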