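import Cfsg.Agent.Lib.Helper99.X3.Defs

set_option autoImplicit false
open scoped MatrixGroups

namespace Cfsg.Agent.Lib.Helper99.X3

variable {F : Type*} [Field F]

local notation "M3" => Matrix (Fin 3) (Fin 3) F

theorem ZS_cj_mul (P : GL (Fin 3) F) (X Y : M3) :
    ((P : M3) * X * ((P⁻¹ : GL (Fin 3) F) : M3)) * ((P : M3) * Y * ((P⁻¹ : GL (Fin 3) F) : M3))
      = (P : M3) * (X * Y) * ((P⁻¹ : GL (Fin 3) F) : M3) := by
  have h : ((P⁻¹ : GL (Fin 3) F) : M3) * (P : M3) = 1 := P.inv_mul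
  calc ((P : M3) * X * ((P⁻¹ : GL (Fin 3) F) : M3)) * ((P : M3) * Y * ((P⁻¹ : GL (Fin 3) F) : M3))
      = (P : M3) * X * (((P⁻¹ : GL (Fin 3) F) : M3) * (P : M3)) * Y * ((P⁻¹ : GL (Fin 3) F) : M3) := by
        simp only [mul_assoc]
    _ = _ := by rw [h, mul_one]; simp only [mul_assoc]

theorem ZS_A0_eq (ζ : F) : A0 ζ = !![1, 0, 0; 0, ζ, 0; 0, 0, ζ ^ 2] := by
  ext i j
  fin_cases i <;> fin_cases j <;> simp [A0]

theorem ZS_A0B0 (ζ : F) (hζ3 : ζ ^ 3 = 1) : A0 ζ * B0 = ζ • (B0 * A0 ζ) := by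
  rw [ZS_A0_eq]
  unfold B0
  ext i j
  fin_cases i <;> fin_cases j <;> simp
  · rw [← pow_succ', hζ3]
  · ring

theorem ZS_rel {R : Subgroup (GL (Fin 3) F)} {ζ : F} {P a b : GL (Fin 3) F} (h : Std R ζ P a b) :
    (a : M3) * (b : M3) = ζ • ((b : M3) * (a : M3)) := by
  rw [h.ha, h.hb, ZS_cj_mul, ZS_cj_mul, ZS_A0B0 ζ h.cube]
  simp

theorem ZS {R : Subgroup (GL (Fin 3) F)} {ζ : F} {P a b : GL (Fin 3) F} (h : Std R ζ P a b) :
    ∃ z ∈ R, z ≠ 1 ∧ (z : M3) = ζ • (1 : M3) := by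
  have haR : a ∈ R := by rw [h.gen]; exact Subgroup.subset_closure (by simp)
  have hbR : b ∈ R := by rw [h.gen]; exact Subgroup.subset_closure (by simp)
  have hz : ((a * b * a⁻¹ * b⁻¹ : GL (Fin 3) F) : M3) = ζ • (1 : M3) := by
    have h1 : ((a * b * a⁻¹ * b⁻¹ : GL (Fin 3) F) : M3) * ((b * a : GL (Fin 3) F) : M3)
        = (ζ • (1 : M3)) * ((b * a : GL (Fin 3) F) : M3) := by
      rw [← Units.val_mul]
      have : a * b * a⁻¹ * b⁻¹ * (b * a) = a * b := by group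
      rw [this, Units.val_mul, Units.val_mul, ZS_rel h]
      simp
    have h2 := congrArg (fun X : M3 => X * (((b * a)⁻¹ : GL (Fin 3) F) : M3)) h1
    simpa [mul_assoc] using h2
  refine ⟨a * b * a⁻¹ * b⁻¹, R.mul_mem (R.mul_mem (R.mul_mem haR hbR) (R.inv_mem haR))
    (R.inv_mem hbR), ?_, hz⟩
  intro h1
  rw [h1] at hz
  have := congrFun (congrFun hz 0) 0
  simp at this
  exact h.ne this.symm

end Cfsg.Agent.Lib.Helper99.X3
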