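import Cfsg.Agent.Lib.Helper99.X3.Defs
import Cfsg.Agent.Lib.Helper74.X3.ZS

set_option autoImplicit false
open scoped MatrixGroups

namespace Cfsg.Agent.Lib.Helper99.X3

variable {F : Type*} [Field F]

local notation "M3" => Matrix (Fin 3) (Fin 3) F

theorem E2 {R : Subgroup (GL (Fin 3) F)} {ζ : F} {P a b : GL (Fin 3) F} (h : Std R ζ P a b) :
    R ≤ Cfsg.Geo.specialLinear (Fin 3) F := by
  rw [h.gen, Subgroup.closure_le]
  have hA : (A0 ζ).det = 1 := by
    rw [ZS_A0_eq, Matrix.det_fin_three]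
    simp
    rw [← pow_succ', h.cube]
  have hB : (B0 : M3).det = 1 := by
    unfold B0
    rw [Matrix.det_fin_three]
    simp
  rintro g (rfl | rfl)
  · change g ∈ (Matrix.GeneralLinearGroup.det : GL (Fin 3) F →* Fˣ).ker
    rw [MonoidHom.mem_ker]
    apply Units.ext
    rw [Matrix.GeneralLinearGroup.val_det_apply, h.ha, Matrix.det_units_conj, hA]
    rfl
  · change g ∈ (Matrix.GeneralLinearGroup.det : GL (Fin 3) F →* Fˣ).ker
    rw [MonoidHom.mem_ker]
    apply Units.ext
    rw [Matrix.GeneralLinearGroup.val_det_apply, h.hb, Matrix.det_units_conj, hB]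
    rfl

end Cfsg.Agent.Lib.Helper99.X3
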