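import Cfsg.Agent.Lib.Helper99.X3.Defs
import Cfsg.Prelude.Def_LieClassical

set_option autoImplicit false
open scoped MatrixGroups

namespace Cfsg.Agent.Lib.Helper99.X3

variable {F : Type*} [Field F]

local notation "M3" => Matrix (Fin 3) (Fin 3) F

theorem U1 [Fintype F] {q : ℕ} (hF : Fintype.card F = q ^ 2) (y : GL (Fin 3) F) (hy : y ∈ Cfsg.GU 3 F q)
    (u w : Fin 3 → F) (lam mu : F) (hu : (y : M3).mulVec u = lam • u) (hw : (y : M3).mulVec w = mu • w)
    (hmu : mu ^ (q + 1) = 1) (hne : lam ≠ mu) : Cfsg.hermForm 3 F q u w = 0 := by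
  have h1 : Cfsg.hermForm 3 F q ((y : M3).mulVec u) ((y : M3).mulVec w) = Cfsg.hermForm 3 F q u w :=
    hy u w
  rw [hu, hw] at h1
  have h2 : Cfsg.hermForm 3 F q (lam • u) (mu • w) = lam * mu ^ q * Cfsg.hermForm 3 F q u w := by
    unfold Cfsg.hermForm
    rw [Finset.mul_sum]
    apply Finset.sum_congr rfl
    intro i _
    simp only [Pi.smul_apply, smul_eq_mul, mul_pow]
    ring
  rw [h2] at h1
  have h3 : (lam - mu) * Cfsg.hermForm 3 F q u w = 0 := by
    have h4 : mu ^ q * mu = 1 := by rw [← pow_succ]; exact hmu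
    have h5 := congrArg (fun t => t * mu) h1
    linear_combination h5 - lam * Cfsg.hermForm 3 F q u w * h4
  rcases mul_eq_zero.1 h3 with h | h
  · exact absurd (sub_eq_zero.1 h) hne
  · exact h

end Cfsg.Agent.Lib.Helper99.X3
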