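import Cfsg.Agent.Lib.Helper99.X3.Defs
import Cfsg.Prelude.Def_LieClassical
import Cfsg.Agent.Lib.Helper9.AschU.Base

set_option autoImplicit false
open scoped MatrixGroups

namespace Cfsg.Agent.Lib.Helper99.X3

variable {F : Type*} [Field F]

local notation "M3" => Matrix (Fin 3) (Fin 3) F

open Cfsg.Agent.Lib.Helper9.AschU in
theorem U3 [Fintype F] {q : ℕ} (hF : Fintype.card F = q ^ 2) (X : Fin 3 → Fin 3 → F)
    (hX : ∀ i j, Cfsg.hermForm 3 F q (X i) (X j) = if i = j then 1 else 0) :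
    ∃ P ∈ Cfsg.GU 3 F q, ∀ i j, (P : M3) i j = X j i := by
  obtain ⟨P0, hP0⟩ : ∃ P0 : M3, P0 = Matrix.of fun i j => X j i := ⟨_, rfl⟩
  have h : adj q P0 * P0 = 1 := by
    ext i j
    rw [Matrix.mul_apply, Matrix.one_apply]
    have := hX j i
    unfold Cfsg.hermForm at this
    rw [show (if i = j then (1 : F) else 0) = if j = i then 1 else 0 by
      by_cases hij : i = j
      · subst hij; simp
      · rw [if_neg hij, if_neg (Ne.symm hij)], ← this]
    apply Finset.sum_congr rfl
    intro k _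
    simp only [adj, hP0, Matrix.of_apply]
    ring
  refine ⟨⟨P0, adj q P0, mul_eq_one_comm.1 h, h⟩, ?_, ?_⟩
  · rw [mem_GU_iff_adj hF]
    exact h
  · intro i j
    change P0 i j = X j i
    rw [hP0]; rfl

end Cfsg.Agent.Lib.Helper99.X3
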